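import Mathlib
import Cfsg.Agent.ChevTori.Main
import Cfsg.Agent.ChevTori.Data
import Cfsg.Agent.ChevUniversal.CenterE

/-! The torus maps of F4, E6, E7, E8 are injective over every field. -/

set_option autoImplicit false

namespace CfsgLib.ChevTori

open Cfsg.Lie CfsgLib.Chevalley CfsgLib.ChevSteinberg CfsgLib.ChevUniversal

universe u

theorem torHom_injective_of_ker {D : ChevalleyDatum} (S : Sys D) (W : Witness S) (K : Type u)
    [Field K] (h : (StSys.torF D K).ker = ⊥) :
    Function.Injective ((groupSys S K).torHom (groupSys_mulH S K) W) := by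
  intro a b e
  have e1 := congrArg (groupSys S K).θ e
  rw [← MonoidHom.comp_apply, ← MonoidHom.comp_apply, StSys.θ_comp_torHom] at e1
  exact (MonoidHom.ker_eq_bot_iff _).1 h e1

theorem torHom_injective_E6 (K : Type u) [Field K] :
    Function.Injective ((groupSys sysE6 K).torHom (groupSys_mulH sysE6 K) witness_E6) := by
  refine torHom_injOn (S' := sysE7) embE6 witness_E6 fun c hc h => ?_
  obtain ⟨-, h2⟩ := (ker_torF_E7 c).1 hc
  have h6 := h2 ⟨6, by decide⟩
  rw [h ⟨6, by decide⟩ (by decide)] at h6
  have h1 : c ⟨1, by decide⟩ = 1 := by simpa using h6.symm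
  funext l
  rw [h2 l, h1, one_zpow, Pi.one_apply]

theorem torHom_injective_E7 (K : Type u) [Field K] :
    Function.Injective ((groupSys sysE7 K).torHom (groupSys_mulH sysE7 K) witness_E7) :=
  torHom_injOn (S' := sysE8) embE7 witness_E7 fun c hc _ => by
    rwa [ker_torF_E8, Subgroup.mem_bot] at hc

end CfsgLib.ChevTori
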